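import Mathlib
import Cfsg.Agent.Lib.Helper51.Zass.Defs
import Cfsg.Agent.Lib.Helper15.Zass.FinC2

set_option autoImplicit false

/-!
# ZASS [FIN-C], preliminaries: facts on `A₅` and general lemmas

Route (no lines): `N := N3 G`, `f : N ↠ A₅` with kernel `{1, z}`.  Fix generators `x0, y0` of
`A₅` with `x0² = y0³ = (x0 y0)⁵ = 1` and preimages `a, b`.  The map
`g ↦ (f (g a g⁻¹), f (g b g⁻¹))` takes at most `121` values and its fibres are the left cosets of
`C := C_G(N)`; so `[G : N C] ≤ 2` and `G = N C` since `G` is perfect.  Then `D := ⁅C, C⁆` is a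
perfect f.p.f. group without elements of order `3`, hence trivial by [FIN-A], so `C ≤ N`.
-/

namespace Cfsg.Agent.Lib.Helper15.Zass

open Cfsg.Agent.Lib.Helper51.Zass

open scoped commutatorElement

universe u

/-! ### Facts on `A₅` -/

/-- the pairs `(x, y)` of permutations of five points with `x² = y³ = (xy)⁵ = 1`. -/
def pairs235 : Finset (Equiv.Perm (Fin 5) × Equiv.Perm (Fin 5)) :=
  ((Finset.univ.filter (fun x : Equiv.Perm (Fin 5) => x ^ 2 = 1)) ×ˢ
    (Finset.univ.filter (fun y : Equiv.Perm (Fin 5) => y ^ 3 = 1))).filter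
      (fun p => (p.1 * p.2) ^ 5 = 1)

set_option maxRecDepth 1000000 in
theorem pairs235_card : pairs235.card = 121 := by
  decide +kernel

theorem mem_pairs235 {x y : Equiv.Perm (Fin 5)} (hx : x ^ 2 = 1) (hy : y ^ 3 = 1)
    (hxy : (x * y) ^ 5 = 1) : (x, y) ∈ pairs235 := by
  simp [pairs235, hx, hy, hxy]

attribute [irreducible] pairs235

set_option maxRecDepth 100000 in
theorem perm5_center : ∀ σ : Equiv.Perm (Fin 5), Equiv.Perm.sign σ = 1 →
    (∀ τ : Equiv.Perm (Fin 5), Equiv.Perm.sign τ = 1 → σ * τ = τ * σ) → σ = 1 := by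
  decide +kernel

theorem alt5_center (σ : alternatingGroup (Fin 5))
    (h : ∀ τ : alternatingGroup (Fin 5), σ * τ = τ * σ) : σ = 1 := by
  apply Subtype.ext
  apply perm5_center _ (Equiv.Perm.mem_alternatingGroup.mp σ.2)
  intro τ hτ
  have := h ⟨τ, Equiv.Perm.mem_alternatingGroup.mpr hτ⟩
  have h2 := congrArg (fun z : alternatingGroup (Fin 5) => (z : Equiv.Perm (Fin 5))) this
  simpa using h2

/-- the generator of order `2`: `(0 1)(2 3)`. -/
def x0 : alternatingGroup (Fin 5) :=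
  ⟨Equiv.swap 0 1 * Equiv.swap 2 3, Equiv.Perm.mem_alternatingGroup.mpr (by decide)⟩

/-- the generator of order `3`: `(0 2 4)`. -/
def y0 : alternatingGroup (Fin 5) :=
  ⟨Equiv.swap 0 2 * Equiv.swap 2 4, Equiv.Perm.mem_alternatingGroup.mpr (by decide)⟩

theorem x0_sq : x0 ^ 2 = 1 := by decide
theorem y0_cube : y0 ^ 3 = 1 := by decide
theorem x0y0_pow : (x0 * y0) ^ 5 = 1 := by decide
theorem x0_ne : x0 ≠ 1 := by decide
theorem y0_ne : y0 ≠ 1 := by decide
theorem x0y0_ne : x0 * y0 ≠ 1 := by decide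

theorem orderOf_x0 : orderOf x0 = 2 := orderOf_eq_prime x0_sq x0_ne
theorem orderOf_y0 : orderOf y0 = 3 :=
  haveI : Fact (Nat.Prime 3) := ⟨Nat.prime_three⟩
  orderOf_eq_prime y0_cube y0_ne
theorem orderOf_x0y0 : orderOf (x0 * y0) = 5 :=
  haveI : Fact (Nat.Prime 5) := ⟨Nat.prime_five⟩
  orderOf_eq_prime x0y0_pow x0y0_ne

/-- `x0` and `y0` generate `A₅`. -/
theorem alt5_gen (B : Subgroup (alternatingGroup (Fin 5))) (hx : x0 ∈ B) (hy : y0 ∈ B) :
    B = ⊤ := by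
  have h2 : 2 ∣ Nat.card B := by
    have := Subgroup.orderOf_dvd_natCard B hx
    rwa [orderOf_x0] at this
  have h3 : 3 ∣ Nat.card B := by
    have := Subgroup.orderOf_dvd_natCard B hy
    rwa [orderOf_y0] at this
  have h5 : 5 ∣ Nat.card B := by
    have := Subgroup.orderOf_dvd_natCard B (B.mul_mem hx hy)
    rwa [orderOf_x0y0] at this
  have h6 : 6 ∣ Nat.card B :=
    Nat.Coprime.mul_dvd_of_dvd_of_dvd (by decide : Nat.Coprime 2 3) h2 h3
  have h30 : 30 ∣ Nat.card B :=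
    Nat.Coprime.mul_dvd_of_dvd_of_dvd (by decide : Nat.Coprime 6 5) h6 h5
  have hidx := Subgroup.card_mul_index B
  rw [card_alt5] at hidx
  obtain ⟨t, ht⟩ := h30
  have h0 : B.index ≠ 0 := Subgroup.index_ne_zero_of_finite
  have hti : t * B.index = 2 := by
    rw [ht] at hidx
    have : 30 * (t * B.index) = 30 * 2 := by rw [← mul_assoc]; exact hidx
    exact Nat.eq_of_mul_eq_mul_left (by norm_num) this
  have hdvd : B.index ∣ 2 := Dvd.intro_left _ hti
  rcases (Nat.dvd_prime Nat.prime_two).mp hdvd with h1 | h2'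
  · exact Subgroup.index_eq_one.mp h1
  · have hn : B.Normal := Subgroup.normal_of_index_eq_two h2'
    rcases hn.eq_bot_or_eq_top with hb | ht'
    · exfalso
      rw [hb, Subgroup.mem_bot] at hx
      exact x0_ne hx
    · exact ht'

/-! ### General lemmas -/

theorem orderOf_conj3 {G : Type*} [Group G] (g x : G) : orderOf (g * x * g⁻¹) = orderOf x := by
  have := orderOf_injective (MulAut.conj g).toMonoidHom (MulAut.conj g).injective x
  simpa using this

theorem N3_normal (G : Type u) [Group G] : (N3 G).Normal := by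
  constructor
  intro n hn g
  have h1 : (N3 G).map (MulAut.conj g).toMonoidHom ≤ N3 G := by
    unfold N3
    rw [MonoidHom.map_closure, Subgroup.closure_le]
    rintro _ ⟨x, hx, rfl⟩
    apply Subgroup.subset_closure
    have hx3 : orderOf x = 3 := hx
    show orderOf ((MulAut.conj g).toMonoidHom x) = 3
    rw [← hx3]
    exact orderOf_injective (MulAut.conj g).toMonoidHom (MulAut.conj g).injective x
  have h2 : (MulAut.conj g).toMonoidHom n ∈ (N3 G).map (MulAut.conj g).toMonoidHom :=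
    Subgroup.mem_map_of_mem _ hn
  simpa using h1 h2

theorem commutator_mul_mul {G : Type*} [Group G] (n₁ n₂ c₁ c₂ : G) (h11 : Commute c₁ n₁)
    (h12 : Commute c₁ n₂) (h21 : Commute c₂ n₁) (h22 : Commute c₂ n₂) :
    ⁅n₁ * c₁, n₂ * c₂⁆ = ⁅n₁, n₂⁆ * ⁅c₁, c₂⁆ := by
  rw [commutatorElement_def, commutatorElement_def, commutatorElement_def]
  calc n₁ * c₁ * (n₂ * c₂) * (n₁ * c₁)⁻¹ * (n₂ * c₂)⁻¹
      = n₁ * (c₁ * n₂) * (c₂ * n₁⁻¹) * (c₁⁻¹ * n₂⁻¹) * c₂⁻¹ := by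
        rw [mul_inv_rev, mul_inv_rev, (h11.inv_inv).eq, (h22.inv_inv).eq]; group
    _ = n₁ * (n₂ * c₁) * (n₁⁻¹ * c₂) * (n₂⁻¹ * c₁⁻¹) * c₂⁻¹ := by
        rw [h12.eq, (h21.inv_right).eq, (h12.inv_inv).eq]
    _ = n₁ * n₂ * (c₁ * n₁⁻¹) * (c₂ * n₂⁻¹) * c₁⁻¹ * c₂⁻¹ := by group
    _ = n₁ * n₂ * (n₁⁻¹ * c₁) * (n₂⁻¹ * c₂) * c₁⁻¹ * c₂⁻¹ := by
        rw [(h11.inv_right).eq, (h22.inv_right).eq]
    _ = n₁ * n₂ * n₁⁻¹ * (c₁ * n₂⁻¹) * c₂ * c₁⁻¹ * c₂⁻¹ := by group
    _ = n₁ * n₂ * n₁⁻¹ * (n₂⁻¹ * c₁) * c₂ * c₁⁻¹ * c₂⁻¹ := by rw [(h12.inv_right).eq]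
    _ = n₁ * n₂ * n₁⁻¹ * n₂⁻¹ * (c₁ * c₂ * c₁⁻¹ * c₂⁻¹) := by group

end Cfsg.Agent.Lib.Helper15.Zass
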