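import Mathlib
import Cfsg.Agent.Lib.Helper51.Zass.Defs
import Cfsg.Agent.Lib.Helper15.Zass.FinC2
import Cfsg.Agent.Lib.Helper15.Zass.FinCPre

set_option autoImplicit false

/-!
# ZASS [FIN-C]: a perfect f.p.f. group in which `N3 G` is a plane is `SL(2,5)`

See `FinCPre.lean` for the route.  Extra hypothesis: [FIN-A].
-/

namespace Cfsg.Agent.Lib.Helper15.Zass

open Cfsg.Agent.Lib.Helper51.Zass

open scoped commutatorElement

universe u

set_option maxHeartbeats 1000000 in
/-- [FIN-C] (with the extra hypothesis [FIN-A]; `h24`, `h120`, `hPair` are not needed). -/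
theorem pkgFinC (hUI : PkgUI.{u}) (hA : PkgFinA.{u}) : PkgFinC.{u} := by
  intro G _ _ hfpf hperf hpl
  have hui := hUI G hfpf
  have hN : (N3 G).Normal := N3_normal G
  refine finC2' G hui ?_ hpl
  obtain ⟨f, hf, hk⟩ := hpl
  -- the kernel
  obtain ⟨c, hc, hkc⟩ := exists_zpowers_of_card_two f.ker hk
  have hc1 : c ≠ 1 := by
    intro h
    rw [h, orderOf_one] at hc
    norm_num at hc
  have hcker : c ∈ f.ker := by rw [hkc]; exact Subgroup.mem_zpowers c
  have hker : ∀ m : N3 G, f m = 1 → m = 1 ∨ m = c := by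
    intro m hm
    by_cases h1 : m = 1
    · exact Or.inl h1
    · exact Or.inr (Cfsg.Agent.S3378.eq_of_card_two hk hm hcker h1 hc1)
  have hz2 : orderOf (c : G) = 2 := by rw [Subgroup.orderOf_coe]; exact hc
  have hzc : ∀ g : G, g * (c : G) * g⁻¹ = c := by
    intro g
    apply hui _ _ _ hz2
    rw [orderOf_conj3, hz2]
  have hN120 : Nat.card (N3 G) = 120 := by
    have h1 := Subgroup.card_mul_index f.ker
    rw [Subgroup.index_ker, MonoidHom.range_eq_top.mpr hf, Subgroup.card_top, card_alt5, hk] at h1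
    omega
  -- conjugation on N
  let cj : G →* MulAut (N3 G) := MulAut.conjNormal
  have hcj : ∀ (g : G) (m : N3 G), ((cj g m : N3 G) : G) = g * m * g⁻¹ :=
    fun g m => MulAut.conjNormal_apply g m
  have hcjc : ∀ g : G, cj g c = c := fun g => Subtype.ext (by rw [hcj]; exact hzc g)
  have hinv : ∀ (g : G) (m : N3 G), f m = 1 → f (cj g m) = 1 := by
    intro g m hm
    rcases hker m hm with rfl | rfl
    · rw [map_one, map_one]
    · rw [hcjc]; exact hm
  have hinj : ∀ (g : G) (m m' : N3 G), f (cj g m) = f (cj g m') → f m = f m' := by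
    intro g m m' h
    have h1 : f (cj g (m⁻¹ * m')) = 1 := by
      simp only [map_mul, map_inv, h, inv_mul_cancel]
    have h2 := hinv g⁻¹ _ h1
    have h3 : cj g⁻¹ (cj g (m⁻¹ * m')) = m⁻¹ * m' := by
      rw [← MulAut.mul_apply, ← map_mul, inv_mul_cancel, map_one, MulAut.one_apply]
    rw [h3, map_mul, map_inv] at h2
    exact inv_mul_eq_one.mp h2
  -- generators
  obtain ⟨a, ha⟩ := hf x0
  obtain ⟨b, hb⟩ := hf y0
  have hΦmem : ∀ g : G, (((f (cj g a) : alternatingGroup (Fin 5)) : Equiv.Perm (Fin 5)),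
      ((f (cj g b) : alternatingGroup (Fin 5)) : Equiv.Perm (Fin 5))) ∈ pairs235 := by
    intro g
    refine mem_pairs235 ?_ ?_ ?_
    · have h1 : f (cj g (a ^ 2)) = 1 := hinv g _ (by rw [map_pow, ha]; exact x0_sq)
      rw [map_pow, map_pow] at h1
      have := congrArg (fun z : alternatingGroup (Fin 5) => (z : Equiv.Perm (Fin 5))) h1
      simpa using this
    · have h1 : f (cj g (b ^ 3)) = 1 := hinv g _ (by rw [map_pow, hb]; exact y0_cube)
      rw [map_pow, map_pow] at h1
      have := congrArg (fun z : alternatingGroup (Fin 5) => (z : Equiv.Perm (Fin 5))) h1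
      simpa using this
    · have h1 : f (cj g ((a * b) ^ 5)) = 1 :=
        hinv g _ (by rw [map_pow, map_mul, ha, hb]; exact x0y0_pow)
      rw [map_pow, map_pow, map_mul, map_mul] at h1
      have := congrArg (fun z : alternatingGroup (Fin 5) => (z : Equiv.Perm (Fin 5))) h1
      simpa using this
  let Φ : G → {p // p ∈ pairs235} := fun g =>
    ⟨(((f (cj g a) : alternatingGroup (Fin 5)) : Equiv.Perm (Fin 5)),
      ((f (cj g b) : alternatingGroup (Fin 5)) : Equiv.Perm (Fin 5))), hΦmem g⟩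
  have hΦval : ∀ g : G, (Φ g).1 = (((f (cj g a) : alternatingGroup (Fin 5)) : Equiv.Perm (Fin 5)),
      ((f (cj g b) : alternatingGroup (Fin 5)) : Equiv.Perm (Fin 5))) := fun g => rfl
  set C : Subgroup G := Subgroup.centralizer (N3 G : Set G) with hC
  -- (i) Φ is constant on the left cosets of C
  have hΦ1 : ∀ g k : G, k ∈ C → Φ (g * k) = Φ g := by
    intro g k hk
    have hfix : ∀ m : N3 G, cj k m = m := by
      intro m
      apply Subtype.ext
      rw [hcj]
      have h1 := (Subgroup.mem_centralizer_iff.mp hk) m m.2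
      rw [← h1]
      group
    apply Subtype.ext
    rw [hΦval, hΦval, map_mul, MulAut.mul_apply, MulAut.mul_apply, hfix, hfix]
  -- (ii) the fibres of Φ are left cosets of C
  have hΦ2 : ∀ g g' : G, Φ g = Φ g' → g⁻¹ * g' ∈ C := by
    intro g g' h
    obtain ⟨k, hk⟩ : ∃ k, k = g⁻¹ * g' := ⟨_, rfl⟩
    rw [← hk]
    have hg' : g' = g * k := by rw [hk]; group
    have h' := congrArg Subtype.val h
    rw [hΦval, hΦval, Prod.mk.injEq] at h'
    obtain ⟨h1, h2⟩ := h'
    have h1' : f (cj g a) = f (cj g (cj k a)) := by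
      have := Subtype.ext h1
      rw [this, hg', map_mul, MulAut.mul_apply]
    have h2' : f (cj g b) = f (cj g (cj k b)) := by
      have := Subtype.ext h2
      rw [this, hg', map_mul, MulAut.mul_apply]
    have ka : f (cj k a) = f a := (hinj g _ _ h1').symm
    have kb : f (cj k b) = f b := (hinj g _ _ h2').symm
    let S : Subgroup (N3 G) := MonoidHom.eqLocus (f.comp (cj k).toMonoidHom) f
    have hSa : a ∈ S := ka
    have hSb : b ∈ S := kb
    have hStop : S.map f = ⊤ :=
      alt5_gen _ (ha ▸ Subgroup.mem_map_of_mem f hSa) (hb ▸ Subgroup.mem_map_of_mem f hSb)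
    have hall : ∀ m : N3 G, f (cj k m) = f m := by
      intro m
      have hm : f m ∈ S.map f := by rw [hStop]; exact Subgroup.mem_top _
      obtain ⟨s, hs, hsm⟩ := Subgroup.mem_map.mp hm
      have hs' : f (cj k s) = f s := hs
      have h3 : f (s⁻¹ * m) = 1 := by rw [map_mul, map_inv, hsm, inv_mul_cancel]
      have h4 := hinv k _ h3
      rw [map_mul, map_inv, map_mul, map_inv, hs', hsm] at h4
      exact (inv_mul_eq_one.mp h4).symm
    -- k centralizes the elements of order 3
    have h3 : ∀ x : G, orderOf x = 3 → x * k = k * x := by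
      intro x hx
      have hxN : x ∈ N3 G := Subgroup.subset_closure hx
      have h5 := hall ⟨x, hxN⟩
      have h6 : f ((⟨x, hxN⟩ : N3 G)⁻¹ * cj k ⟨x, hxN⟩) = 1 := by
        rw [map_mul, map_inv, h5, inv_mul_cancel]
      rcases hker _ h6 with h7 | h7
      · have h8 : (⟨x, hxN⟩ : N3 G) = cj k ⟨x, hxN⟩ := inv_mul_eq_one.mp h7
        have h9 := congrArg Subtype.val h8
        rw [hcj] at h9
        calc x * k = k * x * k⁻¹ * k := by rw [← h9]
          _ = k * x := by group
      · exfalso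
        have h8 : cj k ⟨x, hxN⟩ = ⟨x, hxN⟩ * c := by rw [← h7]; group
        have h9 := congrArg Subtype.val h8
        rw [hcj, Subgroup.coe_mul] at h9
        have hx3 : x ^ 3 = 1 := by rw [← hx]; exact pow_orderOf_eq_one x
        have h10 : (k * x * k⁻¹) ^ 3 = 1 := by rw [conj_pow, hx3]; group
        have hcomm : Commute x (c : G) := by
          have := hzc x
          show x * (c : G) = c * x
          calc x * (c : G) = x * c * x⁻¹ * x := by group
            _ = c * x := by rw [this]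
        have hc2 : (c : G) ^ 2 = 1 := by rw [← hz2]; exact pow_orderOf_eq_one _
        have h11 : (x * (c : G)) ^ 3 = c := by
          rw [hcomm.mul_pow, hx3, one_mul, pow_succ, hc2, one_mul]
        rw [h9, h11] at h10
        rw [h10, orderOf_one] at hz2
        norm_num at hz2
    rw [hC, Subgroup.mem_centralizer_iff]
    intro n hn
    have hle : N3 G ≤ Subgroup.centralizer ({k} : Set G) := by
      unfold N3
      rw [Subgroup.closure_le]
      intro x hx
      rw [SetLike.mem_coe, Subgroup.mem_centralizer_iff]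
      intro y hy
      rw [Set.mem_singleton_iff] at hy
      rw [hy]
      exact (h3 x hx).symm
    have := Subgroup.mem_centralizer_iff.mp (hle hn) k rfl
    exact this.symm
  -- the index of C
  have hidx : C.index ≤ 121 := by
    let ψ : G ⧸ C → {p // p ∈ pairs235} := fun q => Quotient.liftOn' q Φ (fun g g' hgg' => by
      have hmem : g⁻¹ * g' ∈ C := QuotientGroup.leftRel_apply.mp hgg'
      have := hΦ1 g (g⁻¹ * g') hmem
      rw [mul_inv_cancel_left] at this
      exact this.symm)
    have hψ : Function.Injective ψ := by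
      intro q q'
      induction q using Quotient.inductionOn' with | _ g
      induction q' using Quotient.inductionOn' with | _ g'
      intro h
      exact Quotient.sound' (QuotientGroup.leftRel_apply.mpr (hΦ2 g g' h))
    have := Nat.card_le_card_of_injective ψ hψ
    rw [Nat.card_eq_fintype_card (α := {p // p ∈ pairs235}), Fintype.card_coe,
      pairs235_card] at this
    exact this
  have hCn : C.Normal := by rw [hC]; infer_instance
  -- N ∩ C is inside the kernel
  have hNC : ∀ n : N3 G, (n : G) ∈ C → f n = 1 := by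
    intro n hn
    apply alt5_center
    intro τ
    obtain ⟨m, rfl⟩ := hf τ
    rw [← map_mul, ← map_mul]
    congr 1
    apply Subtype.ext
    rw [Subgroup.coe_mul, Subgroup.coe_mul]
    exact ((Subgroup.mem_centralizer_iff.mp hn) m m.2).symm
  have hrel : 60 ≤ C.relIndex (N3 G) := by
    have h1 := Subgroup.card_mul_index (C.subgroupOf (N3 G))
    have hle : C.subgroupOf (N3 G) ≤ f.ker := by
      intro n hn
      exact hNC n (Subgroup.mem_subgroupOf.mp hn)
    have h2 : Nat.card (C.subgroupOf (N3 G)) ≤ 2 := hk ▸ Subgroup.card_le_of_le hle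
    rw [hN120] at h1
    show 60 ≤ (C.subgroupOf (N3 G)).index
    by_contra hcon
    push Not at hcon
    have h4 : Nat.card (C.subgroupOf (N3 G)) * (C.subgroupOf (N3 G)).index ≤ 2 * 59 :=
      Nat.mul_le_mul h2 (by omega)
    omega
  have hsup_idx : (N3 G ⊔ C).index ≤ 2 := by
    have h1 := Subgroup.relIndex_mul_index (H := C) (K := N3 G ⊔ C) le_sup_right
    have h2 : C.relIndex (N3 G ⊔ C) = C.relIndex (N3 G) := Subgroup.relIndex_sup_right (N3 G) C
    rw [h2] at h1
    by_contra hcon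
    push Not at hcon
    have : 60 * 3 ≤ C.relIndex (N3 G) * (N3 G ⊔ C).index := Nat.mul_le_mul hrel hcon
    omega
  have hsup : N3 G ⊔ C = ⊤ := by
    have h0 : (N3 G ⊔ C).index ≠ 0 := Subgroup.index_ne_zero_of_finite
    have h12 : (N3 G ⊔ C).index = 1 ∨ (N3 G ⊔ C).index = 2 := by omega
    rcases h12 with h1 | h2
    · exact Subgroup.index_eq_one.mp h1
    · exfalso
      have : (N3 G ⊔ C).Normal := Subgroup.normal_of_index_eq_two h2
      have hcard : Nat.card (G ⧸ (N3 G ⊔ C)) = 2 := h2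
      have : Fact (Nat.Prime 2) := ⟨Nat.prime_two⟩
      have : IsCyclic (G ⧸ (N3 G ⊔ C)) := isCyclic_of_prime_card hcard
      have hcomm : IsMulCommutative (G ⧸ (N3 G ⊔ C)) := inferInstance
      have hle := Subgroup.Normal.quotient_commutative_iff_commutator_le.mp hcomm
      rw [hperf] at hle
      have := Subgroup.index_eq_one.mpr (top_le_iff.mp hle)
      omega
  have hdec : ∀ g : G, ∃ n ∈ N3 G, ∃ c ∈ C, n * c = g := by
    intro g
    have : g ∈ N3 G ⊔ C := by rw [hsup]; exact Subgroup.mem_top g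
    exact Subgroup.mem_sup_of_normal_left.mp this
  have hcomm : ∀ n ∈ N3 G, ∀ c ∈ C, Commute c n :=
    fun n hn c hc => (Subgroup.mem_centralizer_iff.mp hc n hn).symm
  obtain ⟨D, hD⟩ : ∃ D : Subgroup G, D = ⁅C, C⁆ := ⟨_, rfl⟩
  have hDC : D ≤ C := by rw [hD]; exact Subgroup.commutator_le_right C C
  have htopND : ∀ g : G, g ∈ N3 G ⊔ D := by
    intro g
    have hg : g ∈ _root_.commutator G := by rw [hperf]; exact Subgroup.mem_top g
    have hle : _root_.commutator G ≤ N3 G ⊔ D := by
      show ⁅(⊤ : Subgroup G), ⊤⁆ ≤ N3 G ⊔ D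
      rw [Subgroup.commutator_le]
      intro g₁ _ g₂ _
      obtain ⟨n₁, hn₁, c₁, hc₁, rfl⟩ := hdec g₁
      obtain ⟨n₂, hn₂, c₂, hc₂, rfl⟩ := hdec g₂
      rw [commutator_mul_mul n₁ n₂ c₁ c₂ (hcomm n₁ hn₁ c₁ hc₁) (hcomm n₂ hn₂ c₁ hc₁)
        (hcomm n₁ hn₁ c₂ hc₂) (hcomm n₂ hn₂ c₂ hc₂)]
      refine Subgroup.mul_mem_sup ?_ ?_
      · rw [commutatorElement_def]
        exact mul_mem (mul_mem (mul_mem hn₁ hn₂) (inv_mem hn₁)) (inv_mem hn₂)
      · rw [hD]; exact Subgroup.commutator_mem_commutator hc₁ hc₂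
    exact hle hg
  have hCdec : ∀ x ∈ C, ∃ ζ ∈ N3 G, ζ ∈ C ∧ ∃ d ∈ D, ζ * d = x := by
    intro x hx
    obtain ⟨n, hn, d, hd, rfl⟩ := Subgroup.mem_sup_of_normal_left.mp (htopND x)
    refine ⟨n, hn, ?_, d, hd, rfl⟩
    have : n = n * d * d⁻¹ := by group
    rw [this]
    exact C.mul_mem hx (C.inv_mem (hDC hd))
  have hcent : ∀ ζ ∈ N3 G, ζ ∈ C → ζ ∈ Subgroup.center G := by
    intro ζ hζN hζC
    rw [Subgroup.mem_center_iff]
    intro g
    obtain ⟨n, hn, c, hc, rfl⟩ := hdec g
    have e1 : Commute ζ n := hcomm n hn ζ hζC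
    have e2 : Commute c ζ := hcomm ζ hζN c hc
    calc n * c * ζ = n * (c * ζ) := mul_assoc _ _ _
      _ = n * (ζ * c) := by rw [e2.eq]
      _ = (n * ζ) * c := (mul_assoc _ _ _).symm
      _ = (ζ * n) * c := by rw [e1.eq]
      _ = ζ * (n * c) := mul_assoc _ _ _
  have hDD : ⁅D, D⁆ = D := by
    apply le_antisymm
    · rw [Subgroup.commutator_le]
      intro x hx y hy
      rw [commutatorElement_def]
      exact mul_mem (mul_mem (mul_mem hx hy) (inv_mem hx)) (inv_mem hy)
    · rw [hD, Subgroup.commutator_le, ← hD]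
      intro x hx y hy
      obtain ⟨ζ₁, hζ₁N, hζ₁C, d₁, hd₁, rfl⟩ := hCdec x hx
      obtain ⟨ζ₂, hζ₂N, hζ₂C, d₂, hd₂, rfl⟩ := hCdec y hy
      have z1 := Subgroup.mem_center_iff.mp (hcent ζ₁ hζ₁N hζ₁C)
      have z2 := Subgroup.mem_center_iff.mp (hcent ζ₂ hζ₂N hζ₂C)
      rw [commutator_mul_mul ζ₁ ζ₂ d₁ d₂ (z1 d₁) (z2 d₁) (z1 d₂) (z2 d₂)]
      have : ⁅ζ₁, ζ₂⁆ = 1 := commutatorElement_eq_one_iff_commute.mpr (z2 ζ₁)
      rw [this, one_mul]
      exact Subgroup.commutator_mem_commutator hd₁ hd₂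
  have hDbot : D = ⊥ := by
    by_contra hne
    have : Nontrivial D := (Subgroup.nontrivial_iff_ne_bot D).mpr hne
    have hfpfD : IsFpfLin D := by
      obtain ⟨p, hp, V, i1, i2, i3, i4, ρ, hρ⟩ := hfpf
      exact ⟨p, hp, V, i1, i2, i3, i4, ρ.comp D.subtype,
        fun g hg v hv => hρ g (fun h => hg (Subtype.ext h)) v hv⟩
    have hperfD : _root_.commutator D = ⊤ := by
      apply Subgroup.map_injective D.subtype_injective
      rw [Subgroup.map_subtype_commutator, hDD, ← MonoidHom.range_eq_map, Subgroup.range_subtype]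
    obtain ⟨d, hd⟩ := hA D hfpfD hperfD inferInstance
    have hd3 : orderOf (d : G) = 3 := by rw [Subgroup.orderOf_coe]; exact hd
    have hdN : (d : G) ∈ N3 G := Subgroup.subset_closure hd3
    have hdC : (d : G) ∈ C := hDC d.2
    have h1 : (⟨(d : G), hdN⟩ : N3 G) ∈ f.ker := hNC ⟨d, hdN⟩ hdC
    have h2 := Subgroup.orderOf_dvd_natCard f.ker h1
    rw [hk, ← Subgroup.orderOf_coe] at h2
    have h3 : (3 : ℕ) ∣ 2 := by rw [← hd3]; exact h2
    exact absurd h3 (by decide)
  have hCN : C ≤ N3 G := by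
    intro x hx
    obtain ⟨ζ, hζN, hζC, d, hd, rfl⟩ := hCdec x hx
    rw [hDbot, Subgroup.mem_bot] at hd
    rw [hd, mul_one]
    exact hζN
  rw [← hsup]
  exact (sup_eq_left.mpr hCN).symm

/-- [FIN-C] with the argument list of the package list (plus [FIN-A]). -/
theorem pkgFinC' (_h24 : PkgStr24.{u}) (_h120 : PkgStr120.{u}) (hUI : PkgUI.{u})
    (_hPair : PkgPair.{u}) (hA : PkgFinA.{u}) : PkgFinC.{u} :=
  pkgFinC hUI hA

end Cfsg.Agent.Lib.Helper15.Zass
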